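import Cfsg.Agent.H884.Ext1
import Cfsg.Agent.ClassicalGeometry.OrthAut1
import Cfsg.Agent.LieClassical.OrthFourCommon
import Cfsg.Agent.LieClassical.OrthFinite
import Cfsg.Agent.H190.Exc.Sec
import Cfsg.Agent.H377.ToOmega
/-!
# Orthogonal groups: elements with noncyclic centralisers (helper17)

* `not_CC_E` : an isometry of odd prime order `r` fixing a hyperbolic pair and a nonsingular vector orthogonal to it:
  not all the centralisers of elements of order `r` in `E(Q) / Z` are cyclic;
* `nonempty_pomega` : `POmega F q ≃ E Q / Z` for a form `Q` similar to `q`;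
* `not_CC_of` : the orthogonal sum of an isometry of order `r`, a hyperbolic plane and a nonzero space.
-/

set_option autoImplicit false
set_option linter.unusedSectionVars false

namespace Cfsg.Agent.H17.OA

open QuadraticMap Cfsg.Agent.LieClassical.OrthCore Cfsg.Agent.LieClassical.OrthTrans
  Cfsg.Agent.H190.Exc

section Abs

variable {F V : Type*} [Field F] [AddCommGroup V] [Module F V] {Q : QuadraticForm F V}

/-- elements of odd order of `O Q` are in `E Q` -/
theorem mem_E_of_odd [FiniteDimensional F V] (hG : Good Q) {T : V ≃ₗ[F] V} (hT : T ∈ O Q) {r : ℕ} (hr : Odd r)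
    (ho : T ^ r = 1) : T ∈ E Q := by
  obtain ⟨k, hk⟩ := hr
  have h1 : T = T ^ (k + 1) * T ^ (k + 1) := by
    rw [← pow_add, show k + 1 + (k + 1) = 2 * k + 1 + 1 by omega, pow_succ, ← hk, ho, one_mul]
  rw [h1]
  exact H884.Ext.sq_mem_E hG ((O Q).pow_mem hT _)

/-- **the centralisers are not cyclic** -/
theorem not_CC_E [FiniteDimensional F V] (hG : Good Q) {r : ℕ} (hr : r.Prime) (hr2 : r ≠ 2) {T : V ≃ₗ[F] V}
    (hT : T ∈ O Q) (ho : orderOf T = r) {e f w : V} (h : Hyp Q e f) (hw : Q w ≠ 0) (hew : polar Q e w = 0)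
    (hfw : polar Q f w = 0) (hTe : T e = e) (hTf : T f = f) (hTw : T w = w) :
    ¬ CC (↥(E Q) ⧸ Subgroup.center ↥(E Q)) r := by
  intro hCC
  have hTr : T ^ r = 1 := by rw [← ho]; exact pow_orderOf_eq_one T
  have hTE := mem_E_of_odd hG hT (hr.odd_of_ne_two hr2) hTr
  let x : ↥(E Q) := ⟨T, hTE⟩
  let a : ↥(E Q) := ⟨siegel Q e w h.left hew, siegel_mem_E _ _⟩
  let b : ↥(E Q) := ⟨siegel Q f w h.right hfw, siegel_mem_E _ _⟩
  have hx : orderOf (QuotientGroup.mk x : ↥(E Q) ⧸ Subgroup.center ↥(E Q)) = r := by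
    have : Fact r.Prime := ⟨hr⟩
    refine orderOf_eq_prime ?_ ?_
    · rw [← QuotientGroup.mk_pow]
      have h1 : x ^ r = 1 := Subtype.ext hTr
      rw [h1]; rfl
    · intro h1
      rw [QuotientGroup.eq_one_iff] at h1
      obtain ⟨c, hc⟩ := ClassicalGeometry.OrthAut1.center_scalar hG h1
      have hc1 : c = 1 := by
        have h2 : T e = c • e := hc e
        rw [hTe] at h2
        have h3 : (1 - c) • e = 0 := by rw [sub_smul, one_smul, ← h2, sub_self]
        exact (sub_eq_zero.1 ((smul_eq_zero.1 h3).resolve_right h.left_ne)).symm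
      have h2 : T = 1 := by
        ext v
        have := hc v
        rw [hc1, one_smul] at this
        exact this
      rw [h2, orderOf_one] at ho
      exact hr.one_lt.ne ho
  have hcomm : ∀ (u : V) (hu : Q u = 0) (huw : polar Q u w = 0), T u = u →
      siegel Q u w hu huw * T = T * siegel Q u w hu huw := by
    intro u hu huw hTu
    ext v
    rw [LinearEquiv.mul_apply, LinearEquiv.mul_apply, siegel_apply, siegel_apply, map_sub, map_sub, map_add, map_smul,
      map_smul, map_smul, hTu, hTw]
    have h1 : polar Q u (T v) = polar Q u v := by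
      conv_lhs => rw [← hTu]
      exact polar_map hT u v
    have h2 : polar Q w (T v) = polar Q w v := by
      conv_lhs => rw [← hTw]
      exact polar_map hT w v
    rw [h1, h2]
  have ha : Commute (QuotientGroup.mk a : ↥(E Q) ⧸ Subgroup.center ↥(E Q)) (QuotientGroup.mk x) := by
    have h1 : a * x = x * a := Subtype.ext (hcomm e h.left hew hTe)
    change QuotientGroup.mk a * QuotientGroup.mk x = QuotientGroup.mk x * QuotientGroup.mk a
    rw [← QuotientGroup.mk_mul, ← QuotientGroup.mk_mul, h1]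
  have hb : Commute (QuotientGroup.mk b : ↥(E Q) ⧸ Subgroup.center ↥(E Q)) (QuotientGroup.mk x) := by
    have h1 : b * x = x * b := Subtype.ext (hcomm f h.right hfw hTf)
    change QuotientGroup.mk b * QuotientGroup.mk x = QuotientGroup.mk x * QuotientGroup.mk b
    rw [← QuotientGroup.mk_mul, ← QuotientGroup.mk_mul, h1]
  have hab := hCC.comm hx ha hb
  -- `a b` and `b a` differ by a scalar
  have h1 : (b * a)⁻¹ * (a * b) ∈ Subgroup.center ↥(E Q) := by
    rw [← QuotientGroup.eq, QuotientGroup.mk_mul, QuotientGroup.mk_mul]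
    exact hab.symm
  obtain ⟨c, hc⟩ := ClassicalGeometry.OrthAut1.center_scalar hG h1
  have h2 : ∀ v, siegel Q e w h.left hew (siegel Q f w h.right hfw v) =
      c • siegel Q f w h.right hfw (siegel Q e w h.left hew v) := by
    intro v
    have h3 := hc v
    have h4 : (((b * a) * ((b * a)⁻¹ * (a * b)) : ↥(E Q)) : V ≃ₗ[F] V) v =
        ((b * a : ↥(E Q)) : V ≃ₗ[F] V) (c • v) := by
      rw [← h3]; rfl
    rw [mul_inv_cancel_left, map_smul] at h4
    exact h4
  have hee : polar Q e e = 0 := polar_self_of_sing h.left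
  have hff : polar Q f f = 0 := polar_self_of_sing h.right
  have hwe : polar Q w e = 0 := by rw [polar_comm]; exact hew
  have hwf : polar Q w f = 0 := by rw [polar_comm]; exact hfw
  have hww : polar Q w w = 2 * Q w := polar_self' w
  have hAe : siegel Q e w h.left hew e = e := by
    rw [siegel_apply, hee, hwe]
    simp
  have hAw : siegel Q e w h.left hew w = w - (2 * Q w) • e := by
    rw [siegel_apply, hew, hww]
    simp
  have hAf : siegel Q e w h.left hew f = f + w - Q w • e := by
    rw [siegel_apply, h.pair, hwf]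
    simp
  have hBe : siegel Q f w h.right hfw e = e + w - Q w • f := by
    rw [siegel_apply, h.pair', hwe]
    simp
  have h3 := h2 e
  rw [hAe, hBe, map_sub, map_add, map_smul, hAe, hAw, hAf] at h3
  -- coefficients
  have h4 := congrArg (fun v => polar Q e v) h3
  simp only [polar_add_right, polar_sub_right, polar_smul_right, hee, hew, h.pair, smul_eq_mul] at h4
  have hc1 : c = 1 := by
    have h5 : (1 - c) * Q w = 0 := by linear_combination -h4
    exact (sub_eq_zero.1 ((mul_eq_zero.1 h5).resolve_right hw)).symm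
  subst hc1
  have hw0 : w ≠ 0 := by
    rintro rfl
    exact hw (QuadraticMap.map_zero Q)
  have h5 := congrArg (fun v => polar Q f v) h3
  simp only [polar_add_right, polar_sub_right, polar_smul_right, hff, hfw, h.pair', smul_eq_mul] at h5
  have h6 : Q w • w = 0 := by
    have h7 : (Q w * Q w - 2 * Q w) • e - Q w • w = 0 := by
      have := sub_eq_zero.2 h3
      rw [← this]
      module
    have h8 : (Q w * Q w - 2 * Q w) = 0 := by linear_combination h5
    rw [h8, zero_smul, zero_sub, neg_eq_zero] at h7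
    exact h7
  exact (smul_ne_zero hw hw0) h6

end Abs

section Pom

variable {F V : Type*} [Field F] [AddCommGroup V] [Module F V] {Q : QuadraticForm F V}

/-- `POmega` as `E Q / Z` for a similar form. -/
theorem nonempty_pomega (hG : Good Q) {ι : Type} [Fintype ι] [DecidableEq ι] {q : (ι → F) → F} {c : F} (hc : c ≠ 0)
    (j : (ι → F) ≃ₗ[F] V) (hj : ∀ x, Q (j x) = c * q x) :
    Nonempty (Cfsg.POmega F q ≃* (↥(E Q) ⧸ Subgroup.center ↥(E Q))) := by
  obtain ⟨e0⟩ := LieClassical.OrthFourCommon.exists_isometryGroup_equiv j q (fun v => c⁻¹ * Q v) (fun v => by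
    rw [hj, inv_mul_cancel_left₀ hc])
  have heq : LieClassical.OrthFourCommon.isom (fun v => c⁻¹ * Q v) = O Q := by
    ext g
    constructor
    · intro h v
      exact mul_left_cancel₀ (inv_ne_zero hc) (h v)
    · intro h v
      change c⁻¹ * Q (g v) = c⁻¹ * Q v
      rw [h v]
  let e := e0.trans (MulEquiv.subgroupCongr heq)
  have h1 : (commutator ↥(Cfsg.isometryGroup F q)).map e.toMonoidHom = commutator ↥(O Q) := by
    rw [commutator_def, commutator_def, Subgroup.map_commutator,
      Subgroup.map_top_of_surjective _ e.surjective]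
  have h2 : (commutator ↥(O Q)).map (O Q).subtype = E Q := by
    rw [commutator_def, Subgroup.map_commutator, ← MonoidHom.range_eq_map, Subgroup.range_subtype,
      hG.commutator_eq_E]
  let e1 : ↥(commutator ↥(Cfsg.isometryGroup F q)) ≃* ↥(commutator ↥(O Q)) :=
    ((commutator ↥(Cfsg.isometryGroup F q)).equivMapOfInjective e.toMonoidHom e.injective).trans
      (MulEquiv.subgroupCongr h1)
  let e2 : ↥(commutator ↥(O Q)) ≃* ↥(E Q) :=
    ((commutator ↥(O Q)).equivMapOfInjective (O Q).subtype (O Q).subtype_injective).trans (MulEquiv.subgroupCongr h2)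
  exact ⟨Cfsg.Agent.LieClassical.OrthFinite.quotientCenterCongr (e1.trans e2)⟩

/-- a nondegenerate form has nonsingular vectors -/
theorem exists_ne_zero {V : Type*} [AddCommGroup V] [Module F V] [Nontrivial V] {Q : QuadraticForm F V}
    (hQ : Nondeg Q) : ∃ w, Q w ≠ 0 := by
  by_contra h
  push Not at h
  obtain ⟨x, hx⟩ := exists_ne (0 : V)
  apply hx
  apply hQ
  intro y
  simp [polar, h]

end Pom

section Sum

open Cfsg.Agent.H377

variable {F : Type*} [Field F] [Finite F]

/-- **an isometry of order `r`, a hyperbolic plane and a nonzero space** -/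
theorem not_CC_of {V1 V3 : Type*} [AddCommGroup V1] [Module F V1] [Finite V1] [AddCommGroup V3] [Module F V3]
    [Finite V3] [Nontrivial V3] {Q1 : QuadraticForm F V1} {Q3 : QuadraticForm F V3} (hQ1 : Nondeg Q1)
    (hQ3 : Nondeg Q3) {g : Module.End F V1} (hg : ∀ v, Q1 (g v) = Q1 v) {r : ℕ} (hr : r.Prime) (hr2 : r ≠ 2)
    (ho : orderOf g = r) (hd : 5 ≤ Module.finrank F (V1 × ((F × F) × V3))) {ι : Type} [Fintype ι] [DecidableEq ι]
    {q : (ι → F) → F} {c : F} (hc : c ≠ 0) (j : (ι → F) ≃ₗ[F] (V1 × ((F × F) × V3)))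
    (hj : ∀ x, sumQ Q1 (sumQ (hypQ F) Q3) (j x) = c * q x) : ¬ CC (Cfsg.POmega F q) r := by
  have hfin : Module.Finite F (V1 × ((F × F) × V3)) := Module.Finite.of_finite
  set Q : QuadraticForm F (V1 × ((F × F) × V3)) := sumQ Q1 (sumQ (hypQ F) Q3) with hQdef
  have hQ : Nondeg Q := sumQ_nondeg hQ1 (sumQ_nondeg hypQ_nondeg hQ3)
  have hG : Good Q := LieClassical.OrthFinite.good_of_finite hQ hd
  obtain ⟨ε⟩ := nonempty_pomega hG hc j hj
  intro hCC
  -- the isometry
  let G : Module.End F (V1 × ((F × F) × V3)) := g.prodMap (1 : Module.End F ((F × F) × V3))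
  have hGo : orderOf G = r := by
    have h1 := orderOf_prodMap g (1 : Module.End F ((F × F) × V3))
    rw [orderOf_one, ho, Nat.lcm_one_right] at h1
    exact h1
  have hGr : G ^ r = 1 := by rw [← hGo]; exact pow_orderOf_eq_one G
  have hunit : IsUnit G := IsUnit.of_pow_eq_one hGr hr.ne_zero
  obtain ⟨U, hU⟩ := hunit
  let T : (V1 × ((F × F) × V3)) ≃ₗ[F] (V1 × ((F × F) × V3)) :=
    LinearMap.GeneralLinearGroup.generalLinearEquiv F _ U
  have hT : ∀ v, T v = (g v.1, v.2) := by
    intro v
    change (U : Module.End F (V1 × ((F × F) × V3))) v = _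
    rw [hU]
    rfl
  have hTo : orderOf T = r := by
    rw [← hGo, ← hU, orderOf_units]
    exact MulEquiv.orderOf_eq (LinearMap.GeneralLinearGroup.generalLinearEquiv F (V1 × ((F × F) × V3))) U
  have hTO : T ∈ O Q := by
    intro v
    rw [hT]
    change Q1 (g v.1) + sumQ (hypQ F) Q3 v.2 = Q1 v.1 + sumQ (hypQ F) Q3 v.2
    rw [hg]
  obtain ⟨w, hw⟩ := exists_ne_zero hQ3
  have hval : ∀ (v1 : V1) (x y : F) (v3 : V3), Q (v1, ((x, y), v3)) = Q1 v1 + (x * y + Q3 v3) := fun _ _ _ _ => rfl
  have hyp : Hyp Q (0, ((1, 0), 0)) (0, ((0, 1), 0)) := by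
    refine ⟨?_, ?_, ?_⟩
    · rw [hval]; simp
    · rw [hval]; simp
    · rw [polar]
      simp only [Prod.mk_add_mk, add_zero, zero_add, hval]
      simp
  have h1 : Q (0, ((0, 0), w)) ≠ 0 := by
    rw [hval]; simpa using hw
  have h2 : polar Q (0, ((1, 0), 0)) (0, ((0, 0), w)) = 0 := by
    rw [polar]
    simp only [Prod.mk_add_mk, add_zero, zero_add, hval]
    simp
  have h3 : polar Q (0, ((0, 1), 0)) (0, ((0, 0), w)) = 0 := by
    rw [polar]
    simp only [Prod.mk_add_mk, add_zero, zero_add, hval]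
    simp
  refine not_CC_E hG hr hr2 hTO hTo hyp h1 h2 h3 ?_ ?_ ?_ (hCC.congr ε)
  · rw [hT]; simp
  · rw [hT]; simp
  · rw [hT]; simp

end Sum

end Cfsg.Agent.H17.OA
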