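import Cfsg.Agent.H17.OA.Core
import Cfsg.Agent.H917.BigEO
/-!
# Orthogonal groups of minus type: an elementary abelian subgroup of order `u ^ (2 m - 2)` (helper17)
-/

set_option autoImplicit false
set_option linter.unusedSectionVars false

namespace Cfsg.Agent.H17.OA

open QuadraticMap Cfsg.Agent.LieClassical.OrthCore Cfsg.Agent.LieClassical.OrthTrans Cfsg.Agent.LieClassical.OrthForms
  Cfsg.Agent.H190.Exc

universe u

theorem finrank_perp2 {F V : Type*} [Field F] [AddCommGroup V] [Module F V] [FiniteDimensional F V]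
    {Q : QuadraticForm F V} (u v : V) : Module.finrank F V ≤ Module.finrank F (H917.perp2 Q u v) + 2 := by
  let f : V →ₗ[F] F × F := (polarBilin Q u).prod (polarBilin Q v)
  have hf : LinearMap.ker f = H917.perp2 Q u v := by
    rw [LinearMap.ker_prod]; rfl
  have h2 := LinearMap.finrank_range_add_finrank_ker f
  rw [hf] at h2
  have h3 : Module.finrank F (LinearMap.range f) ≤ 2 := by
    refine (Submodule.finrank_le _).trans ?_
    rw [Module.finrank_prod, Module.finrank_self]
  omega

/-- **minus type: ranks of sections** -/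
theorem minus_rank {m : ℕ} (hm : 4 ≤ m) {F : Type u} [Field F] [Fintype F] {a b : F}
    (hab : ∀ z₁ z₂ : F, z₁ ^ 2 + a * z₁ * z₂ + b * z₂ ^ 2 = 0 → z₁ = 0 ∧ z₂ = 0) {t k : ℕ} [Fact t.Prime] [CharP F t]
    (h : SecRank (Cfsg.POmega F (Cfsg.quadFormMinus (m - 1) F a b)) t k) :
    Fintype.card F ^ (2 * m - 2) ≤ t ^ k := by
  have hfr : Module.finrank F ((Fin (m - 1) ⊕ Fin (m - 1)) ⊕ Fin 2 → F) = 2 * m := by
    rw [Module.finrank_fintype_fun_eq_card, Fintype.card_sum, Fintype.card_sum, Fintype.card_fin, Fintype.card_fin]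
    omega
  have hG : Good (minusForm (m - 1) F a b) :=
    LieClassical.OrthFinite.good_of_finite (nondeg_minusForm (m - 1) F a b hab) (by rw [hfr]; omega)
  obtain ⟨ε⟩ := nonempty_pomega (Q := minusForm (m - 1) F a b) hG (q := Cfsg.quadFormMinus (m - 1) F a b) (c := 1)
    one_ne_zero (LinearEquiv.refl F _) (fun x => by rw [one_mul, ← coe_minusForm]; rfl)
  obtain ⟨f, -, hf⟩ := FiniteField.card F t
  obtain ⟨u, v, huv⟩ := hG.exists_hyp
  have h1 : t ^ ((f : ℕ) * (2 * m - 2)) ≤ Nat.card (H917.perp2 (minusForm (m - 1) F a b) u v) := by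
    have h2 := finrank_perp2 (Q := minusForm (m - 1) F a b) u v
    rw [hfr] at h2
    rw [Module.natCard_eq_pow_finrank (K := F), Nat.card_eq_fintype_card, hf, pow_mul]
    exact Nat.pow_le_pow_right (pow_pos (Fact.out : t.Prime).pos _) (by omega)
  obtain ⟨E, hE1, hE2, hE3⟩ := H917.BigE.congr ε (H917.bigE_of_hom (r := t) (k := (f : ℕ) * (2 * m - 2))
    (V := H917.perp2 (minusForm (m - 1) F a b) u v) (fun w => H917.char_smul (F := F) w)
    (H917.radHom u v huv.left) (fun w hw => H917.radHom_center hG.nondeg huv w hw) h1)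
  rw [hf, ← pow_mul]
  exact hE3.trans (h.le_of_sub E hE1 hE2)

end Cfsg.Agent.H17.OA
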